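import Cfsg.Prelude.Def_LieTypeChar
import Cfsg.Agent.S0243
import Cfsg.Agent.S0245
import Cfsg.Agent.S0246
import Cfsg.Agent.S0280
import Cfsg.Agent.S0292
import Cfsg.Agent.S0293
import Cfsg.Agent.S0294
import Cfsg.Agent.S1059
import Cfsg.Agent.S1062
import Cfsg.Agent.S1063
import Cfsg.Agent.S1064
import Cfsg.Agent.S1065
import Cfsg.Agent.S1066
import Cfsg.Agent.S1067
import Cfsg.Agent.S1068
import Cfsg.Agent.S1069
import Cfsg.Agent.Suzuki.SzLie

/-!
The order of a finite group of Lie type is bounded by a power of the order of a Sylow subgroup in the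
defining characteristic.
-/

set_option autoImplicit false

universe u

namespace Cfsg.Agent.KnownA.LieOrderBound

open Finset

/-- the order data of a group: `d |G| = q^N M` with `M < q^E` and `d`, `M` prime to `p` -/
def Data (p q c N E : ℕ) : Prop :=
  ∃ f d M : ℕ, 1 ≤ f ∧ q = p ^ f ∧ d * c = q ^ N * M ∧ Nat.Coprime p d ∧ Nat.Coprime p M ∧ M < q ^ E

theorem bounds {p q c N E : ℕ} (hp : p.Prime) (hd : Data p q c N E) :
    ∃ f, 1 ≤ f ∧ q = p ^ f ∧ c.factorization p = f * N ∧ c < (p ^ f) ^ (N + E) := by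
  obtain ⟨f, d, M, hf, rfl, he, hcd, hcM, hM⟩ := hd
  have hq : 0 < (p ^ f) ^ N := pow_pos (pow_pos hp.pos f) N
  have hd0 : d ≠ 0 := fun e => hp.ne_one (by simpa [e] using hcd)
  have hM0 : M ≠ 0 := fun e => hp.ne_one (by simpa [e] using hcM)
  have hc0 : c ≠ 0 := fun e => by
    rw [e, mul_zero] at he
    exact mul_ne_zero hq.ne' hM0 he.symm
  refine ⟨f, hf, rfl, ?_, ?_⟩
  · have h1 := congrArg (fun n : ℕ => n.factorization p) he
    simp only [Nat.factorization_mul hd0 hc0, Nat.factorization_mul hq.ne' hM0, Finsupp.add_apply,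
      Nat.factorization_eq_zero_of_not_dvd ((hp.coprime_iff_not_dvd).1 hcd),
      Nat.factorization_eq_zero_of_not_dvd ((hp.coprime_iff_not_dvd).1 hcM), zero_add, add_zero] at h1
    rw [h1, ← pow_mul, Nat.Prime.factorization_pow hp, Finsupp.single_eq_same]
  · have h1 : c ≤ d * c := Nat.le_mul_of_pos_left c (Nat.pos_of_ne_zero hd0)
    rw [he] at h1
    refine lt_of_le_of_lt h1 ?_
    rw [pow_add]
    exact Nat.mul_lt_mul_of_pos_left hM hq

theorem both {p q c N E : ℕ} (hp : p.Prime) (hd : Data p q c N E) (hE : 3 * (N + E) ≤ 8 * N) :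
    c < p ^ (3 * c.factorization p) ∧ c ^ 3 < p ^ (8 * c.factorization p) := by
  obtain ⟨f, hf, -, hk, hc⟩ := bounds hp hd
  rw [hk]
  have h2 : (p ^ f) ^ (N + E) ≤ (p ^ f) ^ (3 * N) :=
    Nat.pow_le_pow_right (pow_pos hp.pos f) (by omega)
  refine ⟨(lt_of_lt_of_le hc h2).trans_le (le_of_eq (by rw [← pow_mul]; congr 1; ring)), ?_⟩
  calc c ^ 3 < ((p ^ f) ^ (N + E)) ^ 3 := Nat.pow_lt_pow_left hc (by norm_num)
    _ = (p ^ f) ^ (3 * (N + E)) := by rw [← pow_mul, mul_comm]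
    _ ≤ (p ^ f) ^ (8 * N) := Nat.pow_le_pow_right (pow_pos hp.pos f) hE
    _ = p ^ (8 * (f * N)) := by rw [← pow_mul]; congr 1; ring

theorem first {p q c N E : ℕ} (hp : p.Prime) (hd : Data p q c N E) (hE : E ≤ 2 * N) :
    c < p ^ (3 * c.factorization p) := by
  obtain ⟨f, hf, -, hk, hc⟩ := bounds hp hd
  rw [hk]
  refine (lt_of_lt_of_le hc (Nat.pow_le_pow_right (pow_pos hp.pos f) (show N + E ≤ 3 * N by omega))).trans_le
    (le_of_eq (by rw [← pow_mul]; congr 1; ring))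

/-! ### coprimality and size of the factors -/

theorem two_le {p f q : ℕ} (hp : p.Prime) (hf : 1 ≤ f) (hq : q = p ^ f) : 2 ≤ q :=
  hq ▸ hp.two_le.trans (Nat.le_self_pow (by omega) p)

theorem cop_sub {p f q i : ℕ} (hp : p.Prime) (hf : 1 ≤ f) (hq : q = p ^ f) (hi : 1 ≤ i) :
    Nat.Coprime p (q ^ i - 1) := by
  refine (hp.coprime_iff_not_dvd).2 fun hd => hp.not_dvd_one ?_
  have h1 : p ∣ q ^ i := by rw [hq, ← pow_mul]; exact dvd_pow_self p (Nat.mul_ne_zero (by omega) (by omega))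
  have h2 : 1 ≤ q ^ i := Nat.one_le_pow _ _ (by have := two_le hp hf hq; omega)
  have := Nat.dvd_sub h1 hd
  rwa [Nat.sub_sub_self h2] at this

theorem cop_add {p f q i : ℕ} (hp : p.Prime) (hf : 1 ≤ f) (hq : q = p ^ f) (hi : 1 ≤ i) :
    Nat.Coprime p (q ^ i + 1) := by
  refine (hp.coprime_iff_not_dvd).2 fun hd => hp.not_dvd_one ?_
  have h1 : p ∣ q ^ i := by rw [hq, ← pow_mul]; exact dvd_pow_self p (Nat.mul_ne_zero (by omega) (by omega))
  exact (Nat.dvd_add_right h1).1 hd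

theorem cop_gcd_sub {p f q i n : ℕ} (hp : p.Prime) (hf : 1 ≤ f) (hq : q = p ^ f) (hi : 1 ≤ i) :
    Nat.Coprime p (Nat.gcd n (q ^ i - 1)) :=
  (cop_sub hp hf hq hi).coprime_dvd_right (Nat.gcd_dvd_right _ _)

theorem cop_gcd_add {p f q i n : ℕ} (hp : p.Prime) (hf : 1 ≤ f) (hq : q = p ^ f) (hi : 1 ≤ i) :
    Nat.Coprime p (Nat.gcd n (q ^ i + 1)) :=
  (cop_add hp hf hq hi).coprime_dvd_right (Nat.gcd_dvd_right _ _)

theorem prod_sub_lt {q : ℕ} (hq : 2 ≤ q) {ι : Type} (s : Finset ι) (hs : s.Nonempty) (e : ι → ℕ)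
    (he : ∀ i ∈ s, 1 ≤ e i) : ∏ i ∈ s, (q ^ e i - 1) < q ^ ∑ i ∈ s, e i := by
  rw [← prod_pow_eq_pow_sum]
  refine prod_lt_prod_of_nonempty (fun i hi => ?_) (fun i hi => ?_) hs
  · have : q ≤ q ^ e i := Nat.le_self_pow (by have := he i hi; omega) q
    omega
  · have : 0 < q ^ e i := by positivity
    omega

theorem add_mul_sub_lt {q a b : ℕ} (hq : 2 ≤ q) (hba : b ≤ a) : (q ^ a + 1) * (q ^ b - 1) < q ^ (a + b) := by
  have h1 : q ^ b ≤ q ^ a := Nat.pow_le_pow_right (show 0 < q by omega) hba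
  obtain ⟨c, hc⟩ : ∃ c, q ^ b = c + 1 :=
    ⟨q ^ b - 1, (Nat.sub_add_cancel (Nat.one_le_pow _ _ (show 0 < q by omega))).symm⟩
  rw [hc] at h1
  rw [hc, Nat.add_sub_cancel, pow_add, hc]
  nlinarith

theorem sub_mul_add_lt {q a : ℕ} (hq : 2 ≤ q) : (q ^ a - 1) * (q ^ (a + 1) + 1) < q ^ (a + (a + 1)) := by
  obtain ⟨c, hc⟩ : ∃ c, q ^ a = c + 1 :=
    ⟨q ^ a - 1, (Nat.sub_add_cancel (Nat.one_le_pow _ _ (show 0 < q by omega))).symm⟩
  rw [pow_add q a (a + 1), show q ^ (a + 1) = q ^ a * q from pow_succ q a, hc, Nat.add_sub_cancel]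
  nlinarith [Nat.mul_le_mul (show 1 ≤ c + 1 by omega) hq]

theorem sub_lt' {q : ℕ} (hq : 2 ≤ q) (i : ℕ) : q ^ i - 1 < q ^ i :=
  Nat.sub_lt (pow_pos (show 0 < q by omega) i) one_pos

theorem sum_even (m : ℕ) : ∑ i ∈ range m, 2 * (i + 1) = m * (m + 1) := by
  induction m with
  | zero => simp
  | succ m ih => rw [sum_range_succ, ih]; ring

theorem prime_pow_root {p q e : ℕ} {F : Type*} [Field F] [Fintype F] [CharP F p] (hp : p.Prime) (he : 1 ≤ e)
    (hF : Fintype.card F = q ^ e) : ∃ f, 1 ≤ f ∧ q = p ^ f := by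
  obtain ⟨n, -, hn⟩ := FiniteField.card F p
  have hd : q ∣ p ^ (n : ℕ) := by rw [← hn, hF]; exact dvd_pow_self q (by omega)
  obtain ⟨g, -, hg⟩ := (Nat.dvd_prime_pow hp).1 hd
  refine ⟨g, ?_, hg⟩
  by_contra hlt
  obtain rfl : g = 0 := by omega
  rw [hg, pow_zero, one_pow] at hF
  exact absurd hF (Fintype.one_lt_card (α := F)).ne'

theorem prime_pow_card {p : ℕ} (F : Type*) [Field F] [Fintype F] [CharP F p] :
    ∃ f, 1 ≤ f ∧ Fintype.card F = p ^ f := by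
  obtain ⟨n, -, hn⟩ := FiniteField.card F p
  exact ⟨n, n.2, hn⟩

/-! ### the families -/

theorem psl {p : ℕ} (hp : p.Prime) {F : Type} [Field F] [Fintype F] [CharP F p] {n : ℕ} (hn : 2 ≤ n) :
    Data p (Fintype.card F) (Nat.card (Matrix.ProjectiveSpecialLinearGroup (Fin n) F)) (n * (n - 1) / 2) (n * (n + 1) / 2 - 1) := by
  obtain ⟨f, hf, hq⟩ := prime_pow_card (p := p) F
  set q := Fintype.card F with hq'
  have h2 := two_le hp hf hq
  obtain ⟨k, rfl⟩ : ∃ k, n = k + 1 := ⟨n - 1, by omega⟩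
  have e := Cfsg.Agent.S0243.result hq'.symm (k + 1) hn
  have key : ∀ l : ℕ, ∏ i : Fin (l + 1), (q ^ (l + 1) - q ^ (i : ℕ)) =
      q ^ ((l + 1) * l / 2) * ((q - 1) * ∏ i ∈ range l, (q ^ (i + 2) - 1)) := by
    intro l
    rw [Fin.prod_univ_eq_prod_range (fun i => q ^ (l + 1) - q ^ i) (l + 1)]
    have e1 : ∀ i ∈ range (l + 1), q ^ (l + 1) - q ^ i = q ^ i * (q ^ (l + 1 - i) - 1) := by
      intro i hi
      rw [Nat.mul_sub_one, ← pow_add, Nat.add_sub_cancel' (by have := mem_range.1 hi; omega)]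
    rw [prod_congr rfl e1, prod_mul_distrib, prod_pow_eq_pow_sum, sum_range_id, Nat.add_sub_cancel]
    congr 1
    have e2 := prod_range_reflect (fun i => q ^ (i + 1) - 1) (l + 1)
    have e3 : ∀ i ∈ range (l + 1), q ^ (l + 1 - i) - 1 = q ^ (l + 1 - 1 - i + 1) - 1 := by
      intro i hi
      have := mem_range.1 hi
      congr 2
      omega
    rw [prod_congr rfl e3, e2, prod_range_succ', mul_comm, zero_add, pow_one]
  rw [key, mul_left_comm (q ^ _), mul_left_comm (Nat.gcd _ _)] at e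
  refine ⟨f, Nat.gcd (k + 1) (q - 1), ∏ i ∈ range k, (q ^ (i + 2) - 1), hf, hq,
    by rw [Nat.add_sub_cancel]; exact Nat.eq_of_mul_eq_mul_left (by omega) e, ?_,
    Nat.Coprime.prod_right fun i _ => cop_sub (i := i + 2) hp hf hq (Nat.le_add_left 1 (i + 1)), ?_⟩
  · simpa using cop_gcd_sub (n := k + 1) hp hf hq le_rfl
  · refine lt_of_lt_of_le (prod_sub_lt h2 (range k) ⟨0, mem_range.2 (by omega)⟩ (fun i => i + 2) fun i _ => by omega)
      (Nat.pow_le_pow_right (by omega) ?_)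
    have hs : 2 * (∑ i ∈ range k, (i + 2)) + 2 = (k + 1) * (k + 1 + 1) := by
      clear hn e
      induction k with
      | zero => simp
      | succ k ih => rw [sum_range_succ]; linarith
    omega

theorem psp {p : ℕ} (hp : p.Prime) {F : Type} [Field F] [Fintype F] [CharP F p] {m : ℕ} (hm : 1 ≤ m) :
    Data p (Fintype.card F) (Nat.card (Cfsg.PSp m F)) (m ^ 2) (m * (m + 1)) := by
  obtain ⟨f, hf, hq⟩ := prime_pow_card (p := p) F
  set q := Fintype.card F with hq'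
  have h2 := two_le hp hf hq
  refine ⟨f, Nat.gcd 2 (q - 1), ∏ i ∈ range m, (q ^ (2 * (i + 1)) - 1), hf, hq, ?_,
    by simpa using cop_gcd_sub (n := 2) hp hf hq le_rfl,
    (Nat.Coprime.prod_right fun i (_ : i ∈ range m) =>
      (cop_sub (i := 2 * (i + 1)) hp hf hq (Nat.le_add_left 1 (2 * i + 1)) : Nat.Coprime p (q ^ (2 * (i + 1)) - 1))), ?_⟩
  · rw [← Cfsg.Agent.S0245.result hq'.symm m, ← Cfsg.Agent.S0246.result hq'.symm m hm, mul_comm]
    exact (Subgroup.card_eq_card_quotient_mul_card_subgroup _).symm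
  · rw [← sum_even]
    exact prod_sub_lt h2 _ ⟨0, mem_range.2 (by omega)⟩ _ fun i _ => by omega

theorem psu {p : ℕ} (hp : p.Prime) {F : Type} [Field F] [Fintype F] [CharP F p] {n q : ℕ}
    (hF : Fintype.card F = q ^ 2) (hn : 2 ≤ n) :
    Data p q (Nat.card (Cfsg.PSU n F q)) (n * (n - 1) / 2) (n * (n + 1) / 2 - 1) := by
  obtain ⟨f, hf, hq⟩ := prime_pow_root (p := p) hp (e := 2) (by norm_num) hF
  have h2 := two_le hp hf hq
  let t : ℕ → ℕ := fun i => if Even i then q ^ (i + 1) + 1 else q ^ (i + 1) - 1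
  obtain ⟨k, rfl⟩ : ∃ k, n = k + 1 := ⟨n - 1, by omega⟩
  have e := Cfsg.Agent.S0280.result hF (k + 1) hn
  change _ = _ * ∏ i ∈ range (k + 1), t i at e
  have ht0 : t 0 = q + 1 := by simp [t]
  rw [prod_range_succ', ht0, ← mul_assoc (Nat.gcd _ _), mul_comm (Nat.gcd _ _), mul_assoc (q + 1),
    mul_comm (∏ i ∈ range k, t (i + 1)), mul_left_comm (q ^ _)] at e
  refine ⟨f, Nat.gcd (k + 1) (q + 1), ∏ i ∈ range k, t (i + 1), hf, hq,
    Nat.eq_of_mul_eq_mul_left (by omega) e,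
    by simpa using cop_gcd_add (n := k + 1) hp hf hq le_rfl,
    Nat.Coprime.prod_right fun i _ => ?_, ?_⟩
  · simp only [t]
    split_ifs
    exacts [cop_add hp hf hq (by omega), cop_sub hp hf hq (by omega)]
  have hodd : ∀ j, t (2 * j + 1) = q ^ (2 * j + 2) - 1 := fun j => by
    simp only [t, Nat.not_even_iff_odd.2 (odd_two_mul_add_one j), if_false]
  have heven : ∀ j, t (2 * j + 2) = q ^ (2 * j + 2 + 1) + 1 := fun j => by
    simp only [t, show Even (2 * j + 2) from ⟨j + 1, by omega⟩, if_true]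
  have hpair : ∀ j, ∏ i ∈ range (2 * j), t (i + 1) ≤ q ^ (j * (2 * j + 3)) ∧
      (1 ≤ j → ∏ i ∈ range (2 * j), t (i + 1) < q ^ (j * (2 * j + 3))) := by
    intro j
    induction j with
    | zero => simp
    | succ j ih =>
      have hlt : ∏ i ∈ range (2 * (j + 1)), t (i + 1) < q ^ ((j + 1) * (2 * (j + 1) + 3)) := by
        rw [show 2 * (j + 1) = 2 * j + 1 + 1 by ring, prod_range_succ, prod_range_succ, mul_assoc, hodd,
          show 2 * j + 1 + 1 = 2 * j + 2 by ring, heven,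
          show q ^ ((j + 1) * (2 * j + 2 + 3)) = q ^ (j * (2 * j + 3)) * q ^ (2 * j + 2 + (2 * j + 2 + 1)) by
            rw [← pow_add]; congr 1; ring]
        exact Nat.mul_lt_mul_of_le_of_lt ih.1 (sub_mul_add_lt h2) (pow_pos (show 0 < q by omega) _)
      exact ⟨hlt.le, fun _ => hlt⟩
  rcases Nat.even_or_odd' k with ⟨j, rfl | rfl⟩
  · refine lt_of_lt_of_le ((hpair j).2 (by omega)) (Nat.pow_le_pow_right (by omega) ?_)
    have : (2 * j + 1) * (2 * j + 1 + 1) = 2 * (j * (2 * j + 3) + 1) := by ring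
    omega
  · rw [prod_range_succ, hodd]
    refine lt_of_lt_of_le (Nat.mul_lt_mul_of_le_of_lt (hpair j).1
      (sub_lt' h2 _) (pow_pos (show 0 < q by omega) _)) ?_
    rw [← pow_add]
    refine Nat.pow_le_pow_right (by omega) ?_
    have : (2 * j + 1 + 1) * (2 * j + 1 + 1 + 1) = 2 * (j * (2 * j + 3) + (2 * j + 2) + 1) := by ring
    omega

theorem pomega_odd {p : ℕ} (hp : p.Prime) {F : Type} [Field F] [Fintype F] [CharP F p] {m : ℕ} (hm : 3 ≤ m)
    (hodd : Odd (Fintype.card F)) :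
    Data p (Fintype.card F) (Nat.card (Cfsg.POmega F (Cfsg.quadFormOdd m F))) (m ^ 2) (m * (m + 1)) := by
  obtain ⟨f, hf, hq⟩ := prime_pow_card (p := p) F
  have h2 := two_le hp hf hq
  refine ⟨f, 2, _, hf, hq, Cfsg.Agent.S0292.result rfl hodd m hm, ?_,
    Nat.Coprime.prod_right fun i _ => cop_sub (i := 2 * (i + 1)) hp hf hq (Nat.le_add_left 1 (2 * i + 1)), ?_⟩
  · refine (hp.coprime_iff_not_dvd).2 fun hd => ?_
    rw [(Nat.prime_dvd_prime_iff_eq hp Nat.prime_two).1 hd] at hq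
    rw [hq, Nat.odd_pow_iff (by omega)] at hodd
    norm_num at hodd
  · rw [← sum_even]
    exact prod_sub_lt h2 _ ⟨0, mem_range.2 (by omega)⟩ _ fun i _ => by omega

theorem pomega_plus {p : ℕ} (hp : p.Prime) {F : Type} [Field F] [Fintype F] [CharP F p] {m : ℕ} (hm : 4 ≤ m) :
    Data p (Fintype.card F) (Nat.card (Cfsg.POmega F (Cfsg.quadFormPlus m F))) (m * (m - 1)) (m + (m - 1) * m) := by
  obtain ⟨f, hf, hq⟩ := prime_pow_card (p := p) F
  have h2 := two_le hp hf hq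
  refine ⟨f, _, _, hf, hq, (Cfsg.Agent.S0293.result rfl m hm).trans (mul_assoc _ _ _),
    cop_gcd_sub hp hf hq (by omega),
    Nat.Coprime.mul_right (cop_sub hp hf hq (by omega))
      (Nat.Coprime.prod_right fun i _ => cop_sub (i := 2 * (i + 1)) hp hf hq (Nat.le_add_left 1 (2 * i + 1))), ?_⟩
  have hb := prod_sub_lt h2 (range (m - 1)) ⟨0, mem_range.2 (by omega)⟩ (fun i => 2 * (i + 1)) fun i _ => by omega
  rw [sum_even, Nat.sub_add_cancel (by omega : 1 ≤ m)] at hb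
  rw [pow_add]
  refine Nat.mul_lt_mul_of_lt_of_lt ?_ hb
  have : 0 < Fintype.card F ^ m := by positivity
  omega

theorem pomega_minus {p : ℕ} (hp : p.Prime) {F : Type} [Field F] [Fintype F] [CharP F p] {m : ℕ} (hm : 4 ≤ m)
    (a b : F) (hab : ∀ z₁ z₂ : F, z₁ ^ 2 + a * z₁ * z₂ + b * z₂ ^ 2 = 0 → z₁ = 0 ∧ z₂ = 0) :
    Data p (Fintype.card F) (Nat.card (Cfsg.POmega F (Cfsg.quadFormMinus (m - 1) F a b))) (m * (m - 1)) (m + (m - 1) * m) := by
  obtain ⟨f, hf, hq⟩ := prime_pow_card (p := p) F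
  have h2 := two_le hp hf hq
  refine ⟨f, _, _, hf, hq, (Cfsg.Agent.S0294.result rfl m hm a b hab).trans (mul_assoc _ _ _),
    cop_gcd_add hp hf hq (by omega),
    Nat.Coprime.mul_right (cop_add hp hf hq (by omega))
      (Nat.Coprime.prod_right fun i _ => cop_sub (i := 2 * (i + 1)) hp hf hq (Nat.le_add_left 1 (2 * i + 1))), ?_⟩
  obtain ⟨l, rfl⟩ : ∃ l, m = l + 2 := ⟨m - 2, by omega⟩
  rw [show l + 2 - 1 = l + 1 by omega, prod_range_succ', mul_comm (∏ i ∈ range l, _), ← mul_assoc,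
    show l + 2 + (l + 1) * (l + 2) = l + 2 + 2 * (0 + 1) + ∑ i ∈ range l, 2 * (i + 1 + 1) by
      rw [show ∑ i ∈ range l, 2 * (i + 1 + 1) = ∑ i ∈ range l, (2 * (i + 1) + 2) from sum_congr rfl fun i _ => by ring,
        sum_add_distrib, sum_even, sum_const, card_range, smul_eq_mul]
      ring,
    pow_add (Fintype.card F) (l + 2 + 2 * (0 + 1))]
  refine Nat.mul_lt_mul_of_lt_of_lt (add_mul_sub_lt h2 (by omega)) ?_
  exact prod_sub_lt h2 _ ⟨0, mem_range.2 (by omega)⟩ _ fun i _ => by omega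

/-- a product of `q^e - 1` over a list -/
theorem list_bound {p f q : ℕ} (hp : p.Prime) (hf : 1 ≤ f) (hq : q = p ^ f) {l : ℕ} (e : Fin (l + 1) → ℕ)
    (he : ∀ i, 1 ≤ e i) :
    Nat.Coprime p (∏ i, (q ^ e i - 1)) ∧ ∏ i, (q ^ e i - 1) < q ^ ∑ i, e i :=
  ⟨Nat.Coprime.prod_right fun i _ => cop_sub hp hf hq (he i),
    prod_sub_lt (two_le hp hf hq) univ univ_nonempty e fun i _ => he i⟩

theorem exceptional {p : ℕ} (hp : p.Prime) {F : Type} [Field F] [Fintype F] [CharP F p] :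
    Data p (Fintype.card F) (Nat.card ↥(Cfsg.Lie.chevG2.group F)) 6 8 ∧ Data p (Fintype.card F) (Nat.card ↥(Cfsg.Lie.chevF4.group F)) 24 28 ∧
      Data p (Fintype.card F) (Nat.card ↥(Cfsg.Lie.chevE6.group F)) 36 42 ∧ Data p (Fintype.card F) (Nat.card ↥(Cfsg.Lie.chevE7.group F)) 63 70 ∧
      Data p (Fintype.card F) (Nat.card ↥(Cfsg.Lie.chevE8.group F)) 120 128 := by
  obtain ⟨f, hf, hq⟩ := prime_pow_card (p := p) F
  refine ⟨?_, ?_, ?_, ?_, ?_⟩
  · obtain ⟨h1, h2⟩ := list_bound hp hf hq ![2, 6] (by intro i; fin_cases i <;> norm_num)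
    refine ⟨f, 1, _, hf, hq, ?_, Nat.coprime_one_right p, h1, lt_of_lt_of_eq h2 (by simp [Fin.sum_univ_succ])⟩
    rw [one_mul, Cfsg.Agent.S1059.result rfl]
    simp [Fin.prod_univ_succ]
    ring
  · obtain ⟨h1, h2⟩ := list_bound hp hf hq ![2, 6, 8, 12] (by intro i; fin_cases i <;> norm_num)
    refine ⟨f, 1, _, hf, hq, ?_, Nat.coprime_one_right p, h1, lt_of_lt_of_eq h2 (by simp [Fin.sum_univ_succ])⟩
    rw [one_mul, Cfsg.Agent.S1062.result rfl]
    simp [Fin.prod_univ_succ]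
    ring
  · obtain ⟨h1, h2⟩ := list_bound hp hf hq ![2, 5, 6, 8, 9, 12] (by intro i; fin_cases i <;> norm_num)
    refine ⟨f, _, _, hf, hq, ?_, by simpa using cop_gcd_sub (n := 3) hp hf hq le_rfl, h1,
      lt_of_lt_of_eq h2 (by simp [Fin.sum_univ_succ])⟩
    rw [Cfsg.Agent.S1063.result rfl]
    simp [Fin.prod_univ_succ]
    ring
  · obtain ⟨h1, h2⟩ := list_bound hp hf hq ![2, 6, 8, 10, 12, 14, 18] (by intro i; fin_cases i <;> norm_num)
    refine ⟨f, _, _, hf, hq, ?_, by simpa using cop_gcd_sub (n := 2) hp hf hq le_rfl, h1,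
      lt_of_lt_of_eq h2 (by simp [Fin.sum_univ_succ])⟩
    rw [Cfsg.Agent.S1064.result rfl]
    simp [Fin.prod_univ_succ]
    ring
  · obtain ⟨h1, h2⟩ := list_bound hp hf hq ![2, 8, 12, 14, 18, 20, 24, 30] (by intro i; fin_cases i <;> norm_num)
    refine ⟨f, 1, _, hf, hq, ?_, Nat.coprime_one_right p, h1, lt_of_lt_of_eq h2 (by simp [Fin.sum_univ_succ])⟩
    rw [one_mul, Cfsg.Agent.S1065.result rfl]
    simp [Fin.prod_univ_succ]
    ring

theorem twisted_e6 {p : ℕ} (hp : p.Prime) {K : Type} [Field K] [Fintype K] [CharP K p] {q : ℕ} (hqp : IsPrimePow q)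
    (hK : Fintype.card K = q ^ 2) : Data p q (Nat.card ↥(Cfsg.Lie.twistedE6 K q)) 36 42 := by
  obtain ⟨f, hf, hq⟩ := prime_pow_root (p := p) hp (e := 2) (by norm_num) hK
  have h2 := two_le hp hf hq
  refine ⟨f, _, (q ^ 8 - 1) * (q ^ 12 - 1) * ((q ^ 5 + 1) * (q ^ 2 - 1)) * ((q ^ 9 + 1) * (q ^ 6 - 1)), hf, hq,
    (Cfsg.Agent.S1066.result hqp hK).trans (by ring), by simpa using cop_gcd_add (n := 3) hp hf hq le_rfl,
    (((cop_sub hp hf hq (by norm_num)).mul_right (cop_sub hp hf hq (by norm_num))).mul_right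
      ((cop_add hp hf hq (by norm_num)).mul_right (cop_sub hp hf hq (by norm_num)))).mul_right
      ((cop_add hp hf hq (by norm_num)).mul_right (cop_sub hp hf hq (by norm_num))), ?_⟩
  rw [show q ^ 42 = q ^ 8 * q ^ 12 * q ^ (5 + 2) * q ^ (9 + 6) by ring]
  exact Nat.mul_lt_mul_of_lt_of_lt (Nat.mul_lt_mul_of_lt_of_lt
    (Nat.mul_lt_mul_of_lt_of_lt (sub_lt' h2 8) (sub_lt' h2 12))
    (add_mul_sub_lt h2 (by norm_num))) (add_mul_sub_lt h2 (by norm_num))

theorem twisted_d4 {p : ℕ} (hp : p.Prime) {K : Type} [Field K] [Fintype K] [CharP K p] {q : ℕ} (hqp : IsPrimePow q)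
    (hK : Fintype.card K = q ^ 3) : Data p q (Nat.card ↥(Cfsg.Lie.twistedD4 K q)) 12 16 := by
  obtain ⟨f, hf, hq⟩ := prime_pow_root (p := p) hp (e := 3) (by norm_num) hK
  have h2 := two_le hp hf hq
  refine ⟨f, 1, (q ^ 6 - 1) * ((q ^ 2 - 1) * (q ^ 8 + q ^ 4 + 1)), hf, hq,
    by rw [one_mul, Cfsg.Agent.S1067.result hqp hK]; ring, Nat.coprime_one_right p,
    (cop_sub hp hf hq (by norm_num)).mul_right ((cop_sub hp hf hq (by norm_num)).mul_right ?_), ?_⟩
  · refine (hp.coprime_iff_not_dvd).2 fun hd => hp.not_dvd_one ?_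
    have hdvd : p ∣ q := hq ▸ dvd_pow_self p (by omega)
    exact (Nat.dvd_add_right (dvd_add (dvd_pow hdvd (by norm_num)) (dvd_pow hdvd (by norm_num)))).1 hd
  · rw [show q ^ 16 = q ^ 6 * (q ^ 2 * q ^ 8) by ring]
    refine Nat.mul_lt_mul_of_lt_of_lt (by have : 0 < q ^ 6 := by positivity
                                          omega) ?_
    obtain ⟨c, hc⟩ : ∃ c, q ^ 2 = c + 1 := ⟨q ^ 2 - 1, by have : 0 < q ^ 2 := by positivity
                                                          omega⟩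
    rw [show q ^ 8 = (q ^ 2) ^ 4 by ring, show q ^ 4 = (q ^ 2) ^ 2 by ring, hc, Nat.add_sub_cancel]
    have hc3 : 3 ≤ c := by nlinarith
    nlinarith [Nat.zero_le (c ^ 3), Nat.zero_le (c ^ 4), Nat.zero_le (c ^ 2)]

theorem ree_suzuki :
    (∀ {F : Type} [Field F] [Fintype F] {m : ℕ}, 1 ≤ m → Fintype.card F = 2 ^ (2 * m + 1) →
      Data 2 (Fintype.card F) (Nat.card ↥(Cfsg.Lie.Sz F (2 ^ (m + 1)))) 2 3) ∧
    (∀ {K : Type} [Field K] [Fintype K] {m : ℕ}, Fintype.card K = 2 ^ (2 * m + 1) →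
      Data 2 (Fintype.card K) (Nat.card ↥(Cfsg.Lie.twistedF4 K (2 ^ m))) 12 14) ∧
    (∀ {K : Type} [Field K] [Fintype K] {m : ℕ}, Fintype.card K = 3 ^ (2 * m + 1) →
      Data 3 (Fintype.card K) (Nat.card ↥(Cfsg.Lie.twistedG2 K (3 ^ m))) 3 4) := by
  refine ⟨fun {F} _ _ {m} hm hF => ?_, fun {K} _ _ {m} hK => ?_, fun {K} _ _ {m} hK => ?_⟩
  · have h : Cfsg.Agent.Suzuki.Ctx F m := ⟨hm, by rw [Nat.card_eq_fintype_card, hF]⟩
    have hp := Nat.prime_two
    have hq : 2 ^ (2 * m + 1) = 2 ^ (2 * m + 1) := rfl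
    have hf : 1 ≤ 2 * m + 1 := by omega
    refine ⟨2 * m + 1, 1, ((2 ^ (2 * m + 1)) ^ 2 + 1) * ((2 ^ (2 * m + 1)) ^ 1 - 1), hf, hF, ?_,
      Nat.coprime_one_right _, (cop_add hp hf hq (by norm_num)).mul_right (cop_sub hp hf hq le_rfl), ?_⟩
    · rw [one_mul, hF, ← Nat.card_congr (Cfsg.Agent.Suzuki.lieEquiv h).toEquiv, Cfsg.Agent.Suzuki.card_sz h, pow_one]
      ring
    · rw [‹Fintype.card _ = _›]
      have hq2 : 2 ≤ 2 ^ (2 * m + 1) := two_le hp hf hq
      generalize 2 ^ (2 * m + 1) = q at hq2 ⊢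
      obtain ⟨c, rfl⟩ : ∃ c, q = c + 1 := ⟨q - 1, by omega⟩
      rw [pow_one, Nat.add_sub_cancel]
      nlinarith
  · have hp := Nat.prime_two
    have hq : 2 ^ (2 * m + 1) = 2 ^ (2 * m + 1) := rfl
    have hf : 1 ≤ 2 * m + 1 := by omega
    refine ⟨2 * m + 1, 1, (((2 ^ (2 * m + 1)) ^ 1 - 1) * ((2 ^ (2 * m + 1)) ^ 3 + 1)) *
      (((2 ^ (2 * m + 1)) ^ 4 - 1) * ((2 ^ (2 * m + 1)) ^ 6 + 1)), hf, hK, ?_, Nat.coprime_one_right _,
      ((cop_sub hp hf hq le_rfl).mul_right (cop_add hp hf hq (by norm_num))).mul_right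
        ((cop_sub hp hf hq (by norm_num)).mul_right (cop_add hp hf hq (by norm_num))), ?_⟩
    · rw [one_mul, Cfsg.Agent.S1068.result hK, hK, pow_one]; ring
    · rw [‹Fintype.card _ = _›]
      have hq2 : 2 ≤ 2 ^ (2 * m + 1) := two_le hp hf hq
      generalize 2 ^ (2 * m + 1) = q at hq2 ⊢
      rw [pow_one, show q ^ 14 = q ^ 4 * q ^ 10 by ring]
      refine Nat.mul_lt_mul_of_lt_of_lt ?_ ?_
      · obtain ⟨c, rfl⟩ : ∃ c, q = c + 1 := ⟨q - 1, by omega⟩
        rw [Nat.add_sub_cancel]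
        nlinarith [Nat.zero_le (c ^ 2), Nat.zero_le (c ^ 3)]
      · rw [mul_comm]
        obtain ⟨c, hc⟩ : ∃ c, q ^ 4 = c + 1 := ⟨q ^ 4 - 1, by have : 0 < q ^ 4 := by positivity
                                                              omega⟩
        rw [hc, Nat.add_sub_cancel, show q ^ 10 = q ^ 6 * q ^ 4 by ring, hc]
        have : q ^ 4 ≤ q ^ 6 := Nat.pow_le_pow_right (by omega) (by norm_num)
        nlinarith
  · have hp := Nat.prime_three
    have hq : 3 ^ (2 * m + 1) = 3 ^ (2 * m + 1) := rfl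
    have hf : 1 ≤ 2 * m + 1 := by omega
    refine ⟨2 * m + 1, 1, ((3 ^ (2 * m + 1)) ^ 1 - 1) * ((3 ^ (2 * m + 1)) ^ 3 + 1), hf, hK, ?_,
      Nat.coprime_one_right _, (cop_sub hp hf hq le_rfl).mul_right (cop_add hp hf hq (by norm_num)), ?_⟩
    · rw [one_mul, Cfsg.Agent.S1069.result hK, hK, pow_one]; ring
    · rw [‹Fintype.card _ = _›]
      have hq2 : 2 ≤ 3 ^ (2 * m + 1) := two_le hp hf hq
      generalize 3 ^ (2 * m + 1) = q at hq2 ⊢
      obtain ⟨c, rfl⟩ : ∃ c, q = c + 1 := ⟨q - 1, by omega⟩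
      rw [pow_one, Nat.add_sub_cancel]
      nlinarith [Nat.zero_le (c ^ 2), Nat.zero_le (c ^ 3)]

theorem statement {G : Type*} [Group G] [Finite G] (p : ℕ) (hp : p.Prime) (hG : Cfsg.IsLieTypeChar p G) :
    Nat.card G < p ^ (3 * (Nat.card G).factorization p) ∧
      ((¬ ∃ (F : Type) (_ : Field F) (_ : Fintype F), Fintype.card F = p ^ (Nat.card G).factorization p ∧
          Nonempty (G ≃* Matrix.ProjectiveSpecialLinearGroup (Fin 2) F)) →
        Nat.card G ^ 3 < p ^ (8 * (Nat.card G).factorization p)) := by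
  have fin : ∀ {q c N E : ℕ}, Data p q c N E → 3 * (N + E) ≤ 8 * N → Nat.card G = c →
      Nat.card G < p ^ (3 * (Nat.card G).factorization p) ∧
      ((¬ ∃ (F : Type) (_ : Field F) (_ : Fintype F), Fintype.card F = p ^ (Nat.card G).factorization p ∧
          Nonempty (G ≃* Matrix.ProjectiveSpecialLinearGroup (Fin 2) F)) →
        Nat.card G ^ 3 < p ^ (8 * (Nat.card G).factorization p)) := fun hd hE e => by
    rw [e]; exact ⟨(both hp hd hE).1, fun _ => (both hp hd hE).2⟩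
  rcases hG with h | h | h | h | h | h | h | h | ⟨rfl, h⟩ | ⟨rfl, h⟩ | ⟨rfl, h⟩
  · obtain ⟨F, _, _, _, n, hn, h4, ⟨e⟩⟩ := h
    have hc := Nat.card_congr e.toEquiv
    by_cases hn2 : n = 2
    · subst hn2
      have hd := psl (F := F) hp hn
      obtain ⟨f, -, hq, hk, -⟩ := bounds hp hd
      have h1 : Fintype.card F = p ^ (Nat.card G).factorization p := by rw [hc, hk, hq]; norm_num
      have h2 := first hp hd (by norm_num)
      rw [← hc] at h2
      refine ⟨h2, fun hno => ?_⟩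
      exact (hno ⟨F, inferInstance, inferInstance, h1, ⟨e⟩⟩).elim
    · refine fin (psl (F := F) hp hn) ?_ hc
      obtain ⟨k, rfl⟩ : ∃ k, n = k + 3 := ⟨n - 3, by omega⟩
      have h1 := Nat.two_mul_div_two_of_even (Nat.even_mul_succ_self (k + 2))
      have h2 := Nat.two_mul_div_two_of_even (Nat.even_mul_succ_self (k + 3))
      rw [show (k + 3) * (k + 3 - 1) = (k + 2) * (k + 2 + 1) by rw [show k + 3 - 1 = k + 2 by omega]; ring]
      have h3 : (k + 3) * (k + 3 + 1) = (k + 2) * (k + 2 + 1) + 2 * (k + 3) := by ring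
      have h4 : (k + 2) * (k + 2 + 1) = k * k + 5 * k + 6 := by ring
      omega
  · obtain ⟨F, _, _, _, m, hm, -, ⟨e⟩⟩ := h
    refine fin (psp (F := F) hp (by omega : 1 ≤ m)) ?_ (Nat.card_congr e.toEquiv)
    nlinarith
  · obtain ⟨F, _, _, _, n, q, hF, hn, -, ⟨e⟩⟩ := h
    refine fin (psu hp hF (by omega : 2 ≤ n)) ?_ (Nat.card_congr e.toEquiv)
    obtain ⟨k, rfl⟩ : ∃ k, n = k + 3 := ⟨n - 3, by omega⟩
    have h1 := Nat.two_mul_div_two_of_even (Nat.even_mul_succ_self (k + 2))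
    have h2 := Nat.two_mul_div_two_of_even (Nat.even_mul_succ_self (k + 3))
    rw [show (k + 3) * (k + 3 - 1) = (k + 2) * (k + 2 + 1) by rw [show k + 3 - 1 = k + 2 by omega]; ring]
    have h3 : (k + 3) * (k + 3 + 1) = (k + 2) * (k + 2 + 1) + 2 * (k + 3) := by ring
    have h4 : (k + 2) * (k + 2 + 1) = k * k + 5 * k + 6 := by ring
    omega
  · obtain ⟨F, _, _, _, m, hm, hodd, ⟨e⟩⟩ := h
    refine fin (pomega_odd hp hm hodd) ?_ (Nat.card_congr e.toEquiv)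
    nlinarith
  · obtain ⟨F, _, _, _, m, hm, ⟨e⟩⟩ := h
    refine fin (pomega_plus (F := F) hp hm) ?_ (Nat.card_congr e.toEquiv)
    obtain ⟨k, rfl⟩ : ∃ k, m = k + 4 := ⟨m - 4, by omega⟩
    rw [show k + 4 - 1 = k + 3 by omega]
    nlinarith
  · obtain ⟨F, _, _, _, m, a, b, hm, hab, ⟨e⟩⟩ := h
    refine fin (pomega_minus hp hm a b hab) ?_ (Nat.card_congr e.toEquiv)
    obtain ⟨k, rfl⟩ : ∃ k, m = k + 4 := ⟨m - 4, by omega⟩
    rw [show k + 4 - 1 = k + 3 by omega]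
    nlinarith
  · obtain ⟨F, _, _, _, h⟩ := h
    obtain ⟨d1, d2, d3, d4, d5⟩ := exceptional (F := F) hp
    rcases h with ⟨-, h⟩ | h | h | h | h <;> obtain ⟨e⟩ := h
    exacts [fin d1 (by norm_num) (Nat.card_congr e.toEquiv), fin d2 (by norm_num) (Nat.card_congr e.toEquiv),
      fin d3 (by norm_num) (Nat.card_congr e.toEquiv), fin d4 (by norm_num) (Nat.card_congr e.toEquiv),
      fin d5 (by norm_num) (Nat.card_congr e.toEquiv)]
  · obtain ⟨K, _, _, _, q, hq, ⟨hK, ⟨e⟩⟩ | ⟨hK, ⟨e⟩⟩⟩ := h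
    exacts [fin (twisted_e6 hp hq hK) (by norm_num) (Nat.card_congr e.toEquiv),
      fin (twisted_d4 hp hq hK) (by norm_num) (Nat.card_congr e.toEquiv)]
  · obtain ⟨F, _, _, m, hm, hF, ⟨e⟩⟩ := h
    exact fin (ree_suzuki.1 hm hF) (by norm_num) (Nat.card_congr e.toEquiv)
  · obtain ⟨K, _, _, m, -, hK, ⟨e⟩⟩ := h
    exact fin (ree_suzuki.2.1 hK) (by norm_num) (Nat.card_congr e.toEquiv)
  · obtain ⟨K, _, _, m, -, hK, ⟨e⟩⟩ := h
    exact fin (ree_suzuki.2.2 hK) (by norm_num) (Nat.card_congr e.toEquiv)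

end Cfsg.Agent.KnownA.LieOrderBound
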